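import Cfsg.Agent.H0.TC
set_option maxRecDepth 100000
namespace H0.TCA73
open H0
noncomputable def tS : Tr := (.leaf (nat_lit 0xfdaaa03bf9d81f3fcec9683e001cc5))
noncomputable def tJ : Tr := (.leaf (nat_lit 0x20850a004000248803600))
noncomputable def tQ : Tr := (.leaf (nat_lit 0x0))
noncomputable def tR : TC.WTr := (.node (.node (.node (.node (.leaf [0] 0 0 false) (.leaf [2, 2] 6 0 true)) (.node (.leaf [2] 1 0 false) (.leaf [3] 3 1 false))) (.node (.node (.leaf [0] 0 0 false) (.leaf [0, 1, 0] 7 0 true)) (.node (.leaf [1] 1 1 false) (.leaf [3] 3 1 false)))) (.node (.node (.node (.leaf [2, 0, 2, 0, 2] 8 1 true) (.leaf [4] 3 0 false)) (.node (.leaf [2] 1 0 false) (.leaf [0, 2, 0] 7 3 false))) (.node (.node (.leaf [2] 1 0 false) (.leaf [4] 3 0 false)) (.leaf [0, 4, 0] 7 1 false))))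
def hl : List ℕ := [3, 4, 4, 3]
def B : List (List ℕ) := [[0, 0], [1, 2], [2, 1], [3, 4], [4, 3], [3, 3, 3], [1, 1, 1], [0, 2, 0, 4], [0, 1, 0, 1, 0, 1], [0, 1, 0, 2, 0, 1, 0, 2], [0, 2, 0, 2, 0, 2]]
def subs : List (List ℕ) := [[3], [4]]
def ex : List (List ℕ) := []
def inv (x : ℕ) : ℕ := [0, 2, 1, 4, 3].getD x 0
noncomputable def rS : ℕ → ℕ := rowOf tS (nat_lit 9) (nat_lit 511) (nat_lit 30) (nat_lit 1073741823)
noncomputable def rJ : ℕ → ℕ := rowOf tJ (nat_lit 9) (nat_lit 511) (nat_lit 21) (nat_lit 2097151)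
noncomputable def C : TC.Cfg where
  S := look rS (nat_lit 5) (nat_lit 31)
  J := look rJ (nat_lit 3) (nat_lit 7)
  Q := lookQ tQ (nat_lit 9) (nat_lit 1) (nat_lit 1)
  R := tR.get
  hl := fun x => hl.contains x
  n := (nat_lit 4)
  M := (nat_lit 4)
  top := (nat_lit 28)
  nl := (nat_lit 5)
  need := (nat_lit 5)
  nr := (nat_lit 3)
theorem k0 : TC.chkRange C 0 1 = true := by decide +kernel
theorem rows0 : ∀ c < (0 + 1) * 64, c < C.M → TC.chkRow C c = true :=
  TC.rows_step (TC.rows_zero C) k0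
theorem main {G : Type*} [Group G] (g : ℕ → G) (hB : ∀ r ∈ B, ev g r = 1) (H : Subgroup G)
    (hH : ∀ w ∈ subs, ev g w ∈ H) :
    H.relIndex (Subgroup.closure (g '' {x | x < 5})) ≠ 0 ∧
      H.relIndex (Subgroup.closure (g '' {x | x < 5})) ≤ 4 :=
  TC.index_le C B subs ex inv hl tR.hint rfl (by decide +kernel) (by decide +kernel)
    (TC.rows_done rows0 (by decide +kernel)) g hB H hH
end H0.TCA73
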